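import Cfsg.Agent.H181.Bs.SpRed
import Cfsg.Agent.H59.Bs.CountSp
import Cfsg.Agent.H847.Bs.Stmts

/-!
# S5733, BS25 and BS28 (symplectic) in their final form
-/

set_option autoImplicit false

namespace Cfsg.Agent.H181.Bs

open Cfsg.Agent.H847.Bs Module

theorem blockSp : BlockSp.{0, 0} :=
  fun _ _ _ _ _ _ _ _ hΦ _ hj hd => Cfsg.Agent.H59.Bs.sp_minus hΦ hj hd

theorem countSp : CountSp.{0, 0} := by
  obtain ⟨c, hc, K₀, h⟩ := Cfsg.Agent.H59.Bs.s10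
  exact ⟨c, hc, K₀, fun F V _ _ _ _ _ Φ hΦ n K hK hn hKn => h F V Φ n K hΦ hK hn hKn⟩

/-- **BS25** -/
theorem s25 : S25 := by
  obtain ⟨c, hc, n₀, h⟩ := sp_red blockSp countSp
  refine ⟨c, hc, n₀, fun F V _ _ _ _ _ Φ hΦ hn Y hY hTI => ?_⟩
  refine h F V Φ hΦ hn Y hY ?_ (Or.inl hTI)
  rintro rfl
  have : Finite V := Module.finite_of_finite F
  have htop : Φ.NdOn ⊤ := fun x _ h => hΦ.nd x fun y => h y Submodule.mem_top
  have h1 := two_finrank_le_of_ti hΦ hTI (le_top (a := (⊤ : Submodule F V))) htop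
  rw [finrank_top] at h1
  apply hY
  rw [← Submodule.finrank_eq_zero (R := F), finrank_top]
  omega

/-- **BS28**, symplectic -/
theorem s28s : S28s := by
  obtain ⟨c, hc, n₀, h⟩ := sp_red blockSp countSp
  exact ⟨c, hc, n₀, fun F V _ _ _ _ _ Φ hΦ hn Y hY hY1 hnd => h F V Φ hΦ hn Y hY hY1 (Or.inr hnd)⟩

end Cfsg.Agent.H181.Bs
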